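/-
Products of two nilpotent subgroups: normal subgroups containing a factor.
-/
import Cfsg.Agent.Grp.KegelWielandt
import Cfsg.Agent.Grp.Ito

set_option autoImplicit false

namespace CL.Grp

open Subgroup Cfsg
open scoped Pointwise

universe u

variable {G : Type*} [Group G]

theorem map_mk'_eq_top_iff (N : Subgroup G) [N.Normal] (A : Subgroup G) :
    A.map (QuotientGroup.mk' N) = ⊤ ↔ N ⊔ A = ⊤ := by
  constructor
  · intro h
    have := congrArg (comap (QuotientGroup.mk' N)) h
    rwa [comap_map_eq, QuotientGroup.ker_mk', comap_top, sup_comm] at this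
  · intro h
    have := congrArg (map (QuotientGroup.mk' N)) h
    rwa [Subgroup.map_sup, (Subgroup.map_eq_bot_iff _).2 (QuotientGroup.ker_mk' N).ge, bot_sup_eq,
      map_top_of_surjective _ (QuotientGroup.mk'_surjective N)] at this

/-- A proper nilpotent subgroup supplementing every minimal normal subgroup has order prime to the order of an
abelian minimal normal subgroup. -/
theorem not_dvd_card_of_forall_isMinNormal_sup [Finite G] {A V : Subgroup G} (hA : Group.IsNilpotent A)
    (hne : A ≠ ⊤) (hall : ∀ M : Subgroup G, IsMinNormal M → M ⊔ A = ⊤) (hV : IsMinNormal V)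
    (hc : IsMulCommutative V) {p : ℕ} [Fact p.Prime] (hp : IsPGroup p V) : ¬ p ∣ Nat.card A := by
  intro hd
  have := hV.normal
  have hP := pCoreOf_isPGroup p A
  obtain ⟨z, hz, hz1, hzc⟩ := exists_central_of_isNilpotent (K := pCoreOf p A ⊔ V) (N := V)
    (hP.to_sup_of_normal_right hp).isNilpotent le_sup_right le_normalizer_of_normal hV.ne_bot
  have hC : (V ⊓ centralizer (pCoreOf p A : Set G)).Normal :=
    normal_of_sup_le_normalizer (hall V hV) (le_normalizer_of_isMulCommutative inf_le_left)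
      (le_normalizer_inf le_normalizer_of_normal (le_normalizer_centralizer' (le_normalizer_pCoreOf p A)))
  have h1 := hV.eq_of_le (K := V ⊓ centralizer (pCoreOf p A : Set G)) (fun e => hz1 (mem_bot.1 (e ▸
    ⟨hz, le_centralizer_singleton_iff.1 (le_sup_left.trans hzc)⟩))) inf_le_left
  have hPn : (pCoreOf p A).Normal := normal_of_sup_le_normalizer (hall V hV)
    (le_normalizer_of_le_centralizer (h1.ge.trans inf_le_right)) (le_normalizer_pCoreOf p A)
  obtain ⟨M, hM, hMP⟩ := exists_isMinNormal_le _ (pCoreOf_ne_bot_of_isNilpotent hA hd)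
  exact hne ((sup_eq_right.2 (hMP.trans (pCoreOf_le p A))).symm.trans (hall M hM))

theorem exists_normal_ne_top_ge_of_isNilpotent [Finite G] (hG : Group.IsNilpotent G) {B : Subgroup G}
    (hB : B ≠ ⊤) : ∃ N : Subgroup G, N.Normal ∧ N ≠ ⊤ ∧ B ≤ N := by
  obtain ⟨M, hM, hBM⟩ := (eq_top_or_exists_le_coatom B).resolve_left hB
  exact ⟨M, isNilpotent_iff_coatom_normal.1 hG M hM, hM.1, hBM⟩

/-- (Kegel) In a product of two nilpotent subgroups, not both the whole group, one factor lies in a proper normal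
subgroup. -/
theorem exists_normal_ne_top_of_isFact_top (G : Type u) [Group G] [Finite G] :
    ∀ A B : Subgroup G, Group.IsNilpotent A → Group.IsNilpotent B → IsFact ⊤ A B → (A ≠ ⊤ ∨ B ≠ ⊤) →
      ∃ N : Subgroup G, N.Normal ∧ N ≠ ⊤ ∧ (A ≤ N ∨ B ≤ N) := by
  refine induction_on_card (P := fun G _ _ => ∀ A B : Subgroup G, Group.IsNilpotent A →
    Group.IsNilpotent B → IsFact ⊤ A B → (A ≠ ⊤ ∨ B ≠ ⊤) →
      ∃ N : Subgroup G, N.Normal ∧ N ≠ ⊤ ∧ (A ≤ N ∨ B ≤ N)) ?_ G
  intro G _ _ ih A B hA hB h hne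
  have hs := isSolvable_of_isFact_top G A B hA hB h
  by_cases hM : ∃ M : Subgroup G, IsMinNormal M ∧ (M ⊔ A ≠ ⊤ ∨ M ⊔ B ≠ ⊤)
  · obtain ⟨M, hM, hM'⟩ := hM
    have := hM.normal
    obtain ⟨N, h1, h2, h3⟩ := ih _ (card_quotient_lt hM.ne_bot) _ _ (isNilpotent_map hA _)
      (isNilpotent_map hB _) (h.map_top (QuotientGroup.mk'_surjective M))
      (by simpa only [Ne, map_mk'_eq_top_iff] using hM')
    refine ⟨N.comap (QuotientGroup.mk' M), inferInstance, fun e => h2 ?_,
      h3.imp map_le_iff_le_comap.1 map_le_iff_le_comap.1⟩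
    rw [← map_comap_eq_self_of_surjective (QuotientGroup.mk'_surjective M) N, e,
      map_top_of_surjective _ (QuotientGroup.mk'_surjective M)]
  push Not at hM
  by_cases hA' : A = ⊤
  · subst hA'
    obtain ⟨N, h1, h2, h3⟩ := exists_normal_ne_top_ge_of_isNilpotent (Group.isNilpotent_top.1 hA)
      (hne.resolve_left (by simp))
    exact ⟨N, h1, h2, Or.inr h3⟩
  by_cases hB' : B = ⊤
  · subst hB'
    obtain ⟨N, h1, h2, h3⟩ := exists_normal_ne_top_ge_of_isNilpotent (Group.isNilpotent_top.1 hB) hA'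
    exact ⟨N, h1, h2, Or.inl h3⟩
  exfalso
  have : Nontrivial G := by
    by_contra hc
    rw [not_nontrivial_iff_subsingleton] at hc
    exact hA' (Subsingleton.elim _ _)
  obtain ⟨V, p, hp, hV, hVe⟩ := exists_isMinNormal_isElementaryAbelian G
  have := Fact.mk hp
  have hVp := isPGroup_of_isElementaryAbelian hVe
  obtain ⟨x, hx, hx1⟩ := (bot_or_exists_ne_one _).resolve_left hV.ne_bot
  have h1 := ((prime_dvd_orderOf_of_mem_isPGroup hVp hx hx1).trans
    ((⊤ : Subgroup G).orderOf_dvd_natCard trivial)).trans h.card_dvd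
  exact (hp.dvd_mul.1 h1).elim
    (not_dvd_card_of_forall_isMinNormal_sup hA hA' (fun M h => (hM M h).1) hV hVe.1 hVp)
    (not_dvd_card_of_forall_isMinNormal_sup hB hB' (fun M h => (hM M h).2) hV hVe.1 hVp)

/-- In a product of a proper abelian subgroup `A` and a nilpotent subgroup `B`, `⟨A, B'⟩` is proper. -/
theorem sup_commutator_ne_top_of_isFact_top (G : Type u) [Group G] [Finite G] :
    ∀ A B : Subgroup G, IsMulCommutative A → Group.IsNilpotent B → IsFact ⊤ A B → A ≠ ⊤ →
      A ⊔ ⁅B, B⁆ ≠ ⊤ := by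
  refine induction_on_card (P := fun G _ _ => ∀ A B : Subgroup G, IsMulCommutative A →
    Group.IsNilpotent B → IsFact ⊤ A B → A ≠ ⊤ → A ⊔ ⁅B, B⁆ ≠ ⊤) ?_ G
  intro G _ _ ih A B hAc hB h hne
  have hA := isNilpotent_of_isMulCommutative hAc
  have hs := isSolvable_of_isFact_top G A B hA hB h
  by_cases hM : ∃ M : Subgroup G, IsMinNormal M ∧ M ⊔ A ≠ ⊤
  · obtain ⟨M, hM, hM'⟩ := hM
    have := hM.normal
    intro e
    refine ih _ (card_quotient_lt hM.ne_bot) _ _ (map_isMulCommutative A _)
      (isNilpotent_map hB _) (h.map_top (QuotientGroup.mk'_surjective M))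
      (by simpa only [Ne, map_mk'_eq_top_iff] using hM') ?_
    rw [← map_commutator, ← Subgroup.map_sup, e, map_top_of_surjective _ (QuotientGroup.mk'_surjective M)]
  push Not at hM
  have : Nontrivial G := by
    by_contra hc
    rw [not_nontrivial_iff_subsingleton] at hc
    exact hne (Subsingleton.elim _ _)
  obtain ⟨V, p, hp, hV, hVe⟩ := exists_isMinNormal_isElementaryAbelian G
  have := Fact.mk hp
  have := hV.normal
  have hVp := isPGroup_of_isElementaryAbelian hVe
  have hpA := not_dvd_card_of_forall_isMinNormal_sup hA hne hM hV hVe.1 hVp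
  have hGV : commutator G ≤ V := Normal.commutator_le_of_self_sup_commutative_eq_top (hM V hV) hAc
  have hVS : IsSylowIn p V ⊤ := ⟨le_top, hVp, fun hd => hpA (hd.trans (by
    rw [← hM V hV, sup_comm, relIndex_sup_right]; exact relIndex_dvd_card _ _))⟩
  have hBB : ⁅B, B⁆ = ⊥ := by
    rw [commutator_eq_bot_iff_le_centralizer]
    refine le_of_forall_isPGroup_le fun q hq S hS hSq => le_centralizer_iff.1 ?_
    refine le_of_forall_isPGroup_le fun r hr T hT hTr => ?_
    rcases eq_or_ne r q with rfl | hne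
    · rw [← commutator_eq_bot_iff_le_centralizer, ← le_bot_iff]
      refine (commutator_mono (le_pCoreOf_of_isNilpotent hB hTr hT)
        (le_pCoreOf_of_isNilpotent hB hSq hS)).trans ?_
      rcases eq_or_ne r p with rfl | hne
      · obtain ⟨g, -, hg⟩ := hVS.exists_conj_le (pCoreOf_isPGroup r B) le_top
        rw [← conj_smul_eq_of_mem_normalizer (le_normalizer_of_normal (H := V) (mem_top g)),
          pointwise_smul_le_pointwise_smul_iff] at hg
        exact (commutator_mono hg hg).trans (commutator_self_eq_bot_iff.2 hVe.1).le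
      · refine le_trans (le_inf (commutator_le_self _) ((commutator_mono le_top le_top).trans hGV)) ?_
        exact (IsPGroup.disjoint_of_ne r p hne _ _ (pCoreOf_isPGroup r B) hVp).le_bot
    · exact le_centralizer_of_isNilpotent_of_ne hB hTr hT hSq hS hne
  rwa [hBB, sup_bot_eq]

theorem IsFact.sup_commutator_ne [Finite G] {H A B : Subgroup G} (h : IsFact H A B)
    (hA : IsMulCommutative A) (hB : Group.IsNilpotent B) (hne : A ≠ H) : A ⊔ ⁅B, B⁆ ≠ H := by
  intro e
  refine sup_commutator_ne_top_of_isFact_top H _ _ (subgroupOf_isMulCommutative H A)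
    (isNilpotent_subgroupOf hB H) h.subgroupOf (fun e' => hne ?_) ?_
  · exact le_antisymm h.1 (subgroupOf_eq_top.1 e')
  · apply map_injective H.subtype_injective
    rw [Subgroup.map_sup, map_commutator, map_subgroupOf_eq_of_le h.1, map_subgroupOf_eq_of_le h.2.1, e,
      ← MonoidHom.range_eq_map, range_subtype]

end CL.Grp
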