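/-
The real Clifford group: for a nondegenerate quadratic form over the field with two elements the extension
`2^{1+2n}.O(q)` exists.
-/
import Cfsg.Agent.Grp.ExtraBasic

set_option autoImplicit false
set_option linter.unusedSectionVars false

open Matrix
open scoped commutatorElement

namespace CL.RCl

/-- the sign of a residue modulo two -/
noncomputable def chi (s : ZMod 2) : ℝ := if s = 0 then 1 else -1

theorem two_cases (s : ZMod 2) : s = 0 ∨ s = 1 := by revert s; decide

@[simp] theorem chi_zero : chi 0 = 1 := if_pos rfl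
@[simp] theorem chi_one : chi 1 = -1 := if_neg (by decide)

theorem chi_add (s t : ZMod 2) : chi (s + t) = chi s * chi t := by
  have e : (1 + 1 : ZMod 2) = 0 := by decide
  rcases two_cases s with rfl | rfl <;> rcases two_cases t with rfl | rfl <;> simp [e]

theorem chi_mul_self (s : ZMod 2) : chi s * chi s = 1 := by rcases two_cases s with rfl | rfl <;> simp

theorem chi_ne_zero (s : ZMod 2) : chi s ≠ 0 := fun e => by simpa [e] using chi_mul_self s

theorem chi_inj {s t : ZMod 2} (h : chi s = chi t) : s = t := by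
  rcases two_cases s with rfl | rfl <;> rcases two_cases t with rfl | rfl <;> first | rfl | (norm_num at h)

theorem exists_chi {a : ℝ} (h : a * a = 1) : ∃ s, a = chi s := by
  rcases mul_self_eq_one_iff.1 h with rfl | rfl
  exacts [⟨0, by simp⟩, ⟨1, by simp⟩]

variable {U : Type*} [AddCommGroup U] [Module (ZMod 2) U]

theorem add_self (x : U) : x + x = 0 := by
  rw [← two_smul (ZMod 2) x, show (2 : ZMod 2) = 0 from rfl, zero_smul]

theorem exists_half [Module.Finite (ZMod 2) U] (γ : LinearMap.BilinForm (ZMod 2) U) (h : ∀ x, γ x x = 0) :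
    ∃ δ : LinearMap.BilinForm (ZMod 2) U, ∀ x y, γ x y = δ x y + δ y x := by
  have hs : ∀ x y, γ x y = γ y x := fun x y => by
    have := h (x + y)
    simp only [map_add, LinearMap.add_apply, h, zero_add, add_zero] at this
    rw [eq_neg_of_add_eq_zero_left this, ZMod.neg_eq_self_mod_two]
  let b := Module.finBasis (ZMod 2) U
  let δ : LinearMap.BilinForm (ZMod 2) U :=
    b.constr (ZMod 2) fun i => b.constr (ZMod 2) fun j => if i < j then γ (b i) (b j) else 0
  have e : γ = δ + δ.flip := LinearMap.BilinForm.ext_basis b fun i j => by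
    simp only [δ, LinearMap.add_apply, LinearMap.BilinForm.flip_apply, Module.Basis.constr_basis]
    rcases lt_trichotomy i j with a | rfl | a
    · simp [a, a.not_gt]
    · simp [h]
    · simp [a, a.not_gt, hs (b i)]
  exact ⟨δ, fun x y => by rw [e]; rfl⟩

/-- a real Pauli system -/
structure Pauli (β : LinearMap.BilinForm (ZMod 2) U) {ι : Type} [Fintype ι] [DecidableEq ι]
    (P : U → Matrix ι ι ℝ) : Prop where
  ne : Nonempty ι
  zero : P 0 = 1
  mul : ∀ x y, P x * P y = chi (β x y) • P (x + y)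
  tr : ∀ x, (P x)ᵀ = chi (β x x) • P x
  nd : ∀ y, (∀ x, β x y + β y x = 0) → y = 0

theorem exists_pauli [Finite U] (β : LinearMap.BilinForm (ZMod 2) U) (nd : ∀ y, (∀ x, β x y + β y x = 0) → y = 0) :
    ∃ (N : ℕ) (P : U → Matrix (Fin N) (Fin N) ℝ), Pauli β P := by
  classical
  obtain ⟨N, ⟨e⟩⟩ := Finite.exists_equiv_fin U
  let f := e.symm
  refine ⟨N, fun x => of fun i j => if f i = x + f j then chi (β x (f j)) else 0, ⟨e 0⟩, ?_, fun x y => ?_,
    fun x => ?_, nd⟩
  · ext i j
    simp [one_apply]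
  · ext i j
    rw [mul_apply, Finset.sum_eq_single (f.symm (y + f j))]
    · simp only [of_apply, Equiv.apply_symm_apply, if_true, Matrix.smul_apply, smul_eq_mul, add_assoc, map_add,
        LinearMap.add_apply, chi_add]
      split_ifs <;> ring
    · intro l _ hl
      simp only [of_apply]
      rw [if_neg (fun a : f l = y + f j => hl (by rw [← a, Equiv.symm_apply_apply])), mul_zero]
    · simp
  · ext i j
    simp only [transpose_apply, of_apply, Matrix.smul_apply, smul_eq_mul]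
    by_cases a : f i = x + f j
    · rw [if_pos a, if_pos (by rw [a, ← add_assoc, add_self, zero_add]), a, map_add, chi_add]
    · rw [if_neg a, if_neg (fun c => a (by rw [c, ← add_assoc, add_self, zero_add])), mul_zero]

namespace Pauli

variable {β : LinearMap.BilinForm (ZMod 2) U} {ι : Type} [Fintype ι] [DecidableEq ι] {P : U → Matrix ι ι ℝ}
  (h : Pauli β P)
include h

theorem sq (x : U) : P x * P x = chi (β x x) • (1 : Matrix ι ι ℝ) := by rw [h.mul, add_self, h.zero]

theorem tr_mul (x : U) : (P x)ᵀ * P x = 1 := by rw [h.tr, smul_mul_assoc, h.sq, smul_smul, chi_mul_self, one_smul]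

theorem mul_tr (x : U) : P x * (P x)ᵀ = 1 := by rw [h.tr, mul_smul_comm, h.sq, smul_smul, chi_mul_self, one_smul]

theorem comm (x y : U) : P x * P y = chi (β x y + β y x) • (P y * P x) := by
  rw [h.mul, h.mul, smul_smul, chi_add, mul_assoc, chi_mul_self, mul_one, add_comm x]

theorem smul_one_inj {a b : ℝ} (e : a • (1 : Matrix ι ι ℝ) = b • 1) : a = b := by
  obtain ⟨i⟩ := h.ne
  simpa using congrFun (congrFun e i) i

theorem smul_inj {a b : ℝ} {x : U} (e : a • P x = b • P x) : a = b := h.smul_one_inj (by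
  have := congrArg (· * (P x)ᵀ) e
  simpa only [smul_mul_assoc, h.mul_tr] using this)

theorem eq_zero {x : U} {a : ℝ} (e : P x = a • (1 : Matrix ι ι ℝ)) : x = 0 := h.nd x fun y => by
  have e1 := h.comm y x
  have e2 : P y * P x = P x * P y := by rw [e, mul_smul_comm, smul_mul_assoc, mul_one, one_mul]
  rw [e2, h.mul, smul_smul] at e1
  have := h.smul_inj e1
  exact (chi_inj (by rw [chi_zero]; exact (mul_eq_right₀ (chi_ne_zero _)).1 this.symm))

theorem inj {x y : U} {a : ℝ} (e : P x = a • P y) : x = y := by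
  have e1 : P (x + y) = (chi (β x y) * (a * chi (β y y))) • (1 : Matrix ι ι ℝ) := by
    rw [← smul_smul, ← smul_smul, ← h.sq, ← smul_mul_assoc, ← e, h.mul, smul_smul, chi_mul_self, one_smul]
  rw [eq_neg_of_add_eq_zero_left (h.eq_zero e1), neg_eq_iff_add_eq_zero.2 (add_self y)]

omit h in
variable (P) in
/-- the algebra spanned by the Pauli matrices -/
def sp : Submodule ℝ (Matrix ι ι ℝ) := Submodule.span ℝ (Set.range P)

omit h in
theorem P_mem (x : U) : P x ∈ sp P := Submodule.subset_span ⟨x, rfl⟩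

theorem one_mem : (1 : Matrix ι ι ℝ) ∈ sp P := h.zero ▸ P_mem 0

theorem mul_mem {a b : Matrix ι ι ℝ} (ha : a ∈ sp P) (hb : b ∈ sp P) : a * b ∈ sp P := by
  induction ha using Submodule.span_induction with
  | zero => simp
  | add x y _ _ h1 h2 => rw [add_mul]; exact add_mem h1 h2
  | smul c x _ h1 => rw [smul_mul_assoc]; exact Submodule.smul_mem _ _ h1
  | mem x hx =>
    obtain ⟨x, rfl⟩ := hx
    induction hb using Submodule.span_induction with
    | zero => simp
    | add x y _ _ h1 h2 => rw [mul_add]; exact add_mem h1 h2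
    | smul c x _ h1 => rw [mul_smul_comm]; exact Submodule.smul_mem _ _ h1
    | mem y hy =>
      obtain ⟨y, rfl⟩ := hy
      rw [h.mul]; exact Submodule.smul_mem _ _ (P_mem _)

theorem tr_mem {a : Matrix ι ι ℝ} (ha : a ∈ sp P) : aᵀ ∈ sp P := by
  induction ha using Submodule.span_induction with
  | zero => simp
  | add x y _ _ h1 h2 => rw [transpose_add]; exact add_mem h1 h2
  | smul c x _ h1 => rw [transpose_smul]; exact Submodule.smul_mem _ _ h1
  | mem x hx =>
    obtain ⟨x, rfl⟩ := hx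
    rw [h.tr]; exact Submodule.smul_mem _ _ (P_mem _)

variable [Fintype U]

theorem sum_chi {y : U} (hy : y ≠ 0) : ∑ x, chi (β x y + β y x) = 0 := by
  obtain ⟨z, hz⟩ : ∃ z, β z y + β y z = 1 := by
    by_contra! e
    exact hy (h.nd y fun x => (two_cases _).resolve_right (e x))
  have := Equiv.sum_comp (Equiv.addLeft z) fun x => chi (β x y + β y x)
  simp only [Equiv.coe_addLeft, map_add, LinearMap.add_apply, add_add_add_comm (β z y), hz, chi_add _ (_ + _),
    chi_one, neg_one_mul, Finset.sum_neg_distrib] at this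
  linarith

theorem avg (y : U) : ∑ x, P x * P y * (P x)ᵀ = (∑ x, chi (β x y + β y x)) • P y := by
  rw [Finset.sum_smul]
  exact Finset.sum_congr rfl fun x _ => by rw [h.comm x y, smul_mul_assoc, mul_assoc, h.mul_tr, mul_one]

theorem scalar {a : Matrix ι ι ℝ} (ha : a ∈ sp P) (hc : ∀ x, P x * a = a * P x) : ∃ c : ℝ, a = c • 1 := by
  have h1 : ∃ c : ℝ, ∑ x, P x * a * (P x)ᵀ = c • 1 := by
    clear hc
    induction ha using Submodule.span_induction with
    | zero => exact ⟨0, by simp⟩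
    | add x y _ _ h1 h2 =>
      obtain ⟨c, h1⟩ := h1
      obtain ⟨d, h2⟩ := h2
      exact ⟨c + d, by simp only [mul_add, add_mul, Finset.sum_add_distrib, h1, h2, add_smul]⟩
    | smul c x _ h1 =>
      obtain ⟨d, h1⟩ := h1
      exact ⟨c * d, by simp only [mul_smul_comm, smul_mul_assoc, ← Finset.smul_sum, h1, smul_smul]⟩
    | mem y hy =>
      obtain ⟨y, rfl⟩ := hy
      rw [h.avg]
      by_cases e : y = 0
      · exact ⟨_, by rw [e, h.zero]⟩
      · exact ⟨0, by rw [h.sum_chi e, zero_smul, zero_smul]⟩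
  obtain ⟨c, h1⟩ := h1
  simp only [hc, mul_assoc, h.mul_tr, mul_one, Finset.sum_const, Finset.card_univ] at h1
  refine ⟨(Fintype.card U : ℝ)⁻¹ * c, ?_⟩
  rw [← smul_smul, ← h1, ← Nat.cast_smul_eq_nsmul ℝ, smul_smul, inv_mul_cancel₀ (by simp), one_smul]

omit h in
variable (P) in
/-- `g` induces `f` on the Pauli matrices -/
def Act (g : Matrix ι ι ℝ) (f : U → U) : Prop := ∀ x, ∃ s, g * P x = chi s • (P (f x) * g)

theorem exists_act [Module.Finite (ZMod 2) U] (f : U →ₗ[ZMod 2] U) (hf : ∀ x, β (f x) (f x) = β x x) :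
    ∃ g ∈ sp P, gᵀ * g = 1 ∧ Act P g f := by
  obtain ⟨δ, hδ⟩ := exists_half (β.comp f f + β) fun x => by
    simp only [LinearMap.add_apply, LinearMap.BilinForm.comp_apply, hf, add_self]
  simp only [LinearMap.add_apply, LinearMap.BilinForm.comp_apply] at hδ
  let α : U → Matrix ι ι ℝ := fun x => chi (δ x x) • P (f x)
  have a1 : ∀ x y, α x * α y = chi (β x y) • α (x + y) := fun x y => by
    simp only [α, smul_mul_assoc, mul_smul_comm, h.mul, smul_smul, map_add, LinearMap.add_apply, ← chi_add]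
    congr 2
    have := add_self (β x y)
    linear_combination hδ x y - this
  let u : U → Matrix ι ι ℝ := fun w => ∑ v, α v * P w * (P v)ᵀ
  have a2 : ∀ w x, u w * P x = α x * u w := fun w x => by
    simp only [u, Finset.sum_mul, Finset.mul_sum]
    rw [← Equiv.sum_comp (Equiv.addLeft x)]
    refine Finset.sum_congr rfl fun v _ => ?_
    have e1 : (P (x + v))ᵀ * P x = chi (β x v) • (P v)ᵀ := by
      have := congrArg (fun M => Mᵀ * P x) (h.mul x v)
      simp only [transpose_mul, mul_assoc, h.tr_mul, mul_one, transpose_smul, smul_mul_assoc] at this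
      rw [this, smul_smul, chi_mul_self, one_smul]
    change α (x + v) * P w * (P (x + v))ᵀ * P x = α x * (α v * P w * (P v)ᵀ)
    rw [mul_assoc, e1, ← mul_assoc, ← mul_assoc, a1, mul_smul_comm, smul_mul_assoc (chi (β x v)),
      smul_mul_assoc (chi (β x v))]
  obtain ⟨w, hw⟩ : ∃ w, u w ≠ 0 := by
    by_contra! e
    have e1 : ∑ w, u w * (P w)ᵀ = (Fintype.card U : ℝ) • (1 : Matrix ι ι ℝ) := by
      simp only [u, Finset.sum_mul]
      rw [Finset.sum_comm, Finset.sum_eq_single 0]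
      · simp [α, h.zero, h.mul_tr, Nat.cast_smul_eq_nsmul]
      · intro v _ hv
        have := h.avg v
        rw [h.sum_chi hv, zero_smul] at this
        simp only [h.tr v, mul_smul_comm, smul_mul_assoc, mul_assoc, ← Finset.smul_sum, ← Finset.mul_sum]
        simp only [← mul_assoc, this, mul_zero, smul_zero]
      · simp
    simp only [e, zero_mul, Finset.sum_const_zero] at e1
    exact absurd (h.smul_one_inj ((zero_smul ℝ _).trans e1)).symm (by simp)
  have a3 : u w ∈ sp P := Submodule.sum_mem _ fun v _ =>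
    h.mul_mem (h.mul_mem (Submodule.smul_mem _ _ (P_mem _)) (P_mem _)) (h.tr_mem (P_mem _))
  obtain ⟨c, hc⟩ := h.scalar (h.mul_mem (h.tr_mem a3) a3) fun x => by
    have e1 : (P x)ᵀ * ((u w)ᵀ * u w) * P x = (u w)ᵀ * u w := by
      rw [← mul_assoc, ← transpose_mul, mul_assoc, a2, transpose_mul, mul_assoc, ← mul_assoc (α x)ᵀ]
      simp only [α, transpose_smul, smul_mul_assoc, mul_smul_comm, smul_smul, chi_mul_self, one_smul, h.tr_mul, one_mul]
    conv_lhs => rw [← e1]
    rw [← mul_assoc, ← mul_assoc, h.mul_tr, one_mul]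
  have a4 : 0 < c := by
    obtain ⟨i, j, hij⟩ : ∃ i j, u w i j ≠ 0 := by
      by_contra! e
      exact hw (by ext i j; exact e i j)
    have := congrFun (congrFun hc j) j
    simp only [mul_apply, transpose_apply, Matrix.smul_apply, one_apply_eq, smul_eq_mul, mul_one] at this
    rw [← this]
    exact Finset.sum_pos' (fun l _ => mul_self_nonneg _) ⟨i, Finset.mem_univ _, mul_self_pos.2 hij⟩
  refine ⟨(√c)⁻¹ • u w, Submodule.smul_mem _ _ a3, ?_, fun x => ⟨δ x x, ?_⟩⟩
  · rw [transpose_smul, smul_mul_assoc, mul_smul_comm, hc, smul_smul, smul_smul, ← mul_inv, Real.mul_self_sqrt a4.le,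
      inv_mul_cancel₀ a4.ne', one_smul]
  · rw [smul_mul_assoc, a2, mul_smul_comm, smul_comm, smul_mul_assoc]

theorem exists_eq [Module.Finite (ZMod 2) U] {g : Matrix ι ι ℝ} (hg : g ∈ sp P) (ho : gᵀ * g = 1)
    (ha : Act P g id) : ∃ s x, g = chi s • P x := by
  choose ε hε using ha
  simp only [id] at hε
  have ho' : g * gᵀ = 1 := mul_eq_one_comm.1 ho
  have e1 : ∀ x, g * P x * gᵀ = chi (ε x) • P x := fun x => by rw [hε, smul_mul_assoc, mul_assoc, ho', mul_one]
  have e2 : ∀ x y, ε (x + y) = ε x + ε y := fun x y => by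
    have : g * P x * gᵀ * (g * P y * gᵀ) = g * (P x * P y) * gᵀ := by
      simp only [mul_assoc]; rw [← mul_assoc gᵀ, ho, one_mul]
    rw [e1, e1, h.mul] at this
    simp only [mul_smul_comm, smul_mul_assoc, e1, h.mul, smul_smul] at this
    have := h.smul_inj this
    simp only [← chi_add] at this
    linear_combination -chi_inj this
  let l : Module.Dual (ZMod 2) U := (AddMonoidHom.mk' ε e2).toZModLinearMap 2
  have nd : (β + β.flip).Nondegenerate :=
    ⟨fun y hy => h.nd y fun x => by simpa [add_comm] using hy x, fun y hy => h.nd y fun x => by simpa using hy x⟩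
  obtain ⟨w, hw⟩ := ((β + β.flip).toDual nd).surjective l
  have e3 : ∀ x, ε x = β w x + β x w := fun x => by
    have := congrArg (· x) hw
    simpa [l, LinearMap.BilinForm.toDual_def] using this.symm
  obtain ⟨c, hc⟩ := h.scalar (h.mul_mem (h.tr_mem (P_mem w)) hg) fun x => by
    rw [mul_assoc, hε, e3, mul_smul_comm, ← mul_assoc, ← mul_assoc, h.tr, mul_smul_comm, smul_mul_assoc, smul_mul_assoc, smul_mul_assoc,
      h.comm w x, smul_mul_assoc, smul_comm (chi (β w w)) (chi (β w x + β x w)), smul_smul, chi_mul_self, one_smul]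
  have e4 : g = c • P w := by rw [← one_mul g, ← h.mul_tr w, mul_assoc, hc, mul_smul_comm, mul_one]
  obtain ⟨s, rfl⟩ := exists_chi (a := c) (h.smul_one_inj (by
    rw [e4, transpose_smul, smul_mul_assoc, mul_smul_comm, h.tr_mul, smul_smul] at ho
    rw [ho, one_smul]))
  exact ⟨s, w, e4⟩

theorem act_P (s : ZMod 2) (w : U) : Act P (chi s • P w) id := fun x =>
  ⟨β w x + β x w, by rw [smul_mul_assoc, h.comm w x, id, mul_smul_comm, smul_comm]⟩

theorem act_unique {g : Matrix ι ι ℝ} (ho : gᵀ * g = 1) {f f' : U → U} (a : Act P g f) (a' : Act P g f') : f = f' := by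
  funext x
  obtain ⟨s, e⟩ := a x
  obtain ⟨s', e'⟩ := a' x
  have := congrArg (fun M => chi s • (M * gᵀ)) (e.symm.trans e')
  simp only [smul_mul_assoc, mul_assoc, mul_eq_one_comm.1 ho, mul_one, smul_smul, chi_mul_self, one_smul] at this
  exact h.inj this

omit h in
theorem Act.mul {g g' : Matrix ι ι ℝ} {f f' : U → U} (a : Act P g f) (a' : Act P g' f') : Act P (g * g') (f ∘ f') :=
  fun x => by
    obtain ⟨s', e'⟩ := a' x
    obtain ⟨s, e⟩ := a (f' x)
    exact ⟨s' + s, by rw [mul_assoc, e', mul_smul_comm, ← mul_assoc, e, smul_mul_assoc, smul_smul, chi_add, mul_assoc]; rfl⟩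

omit h in
theorem Act.tr {g : Matrix ι ι ℝ} (ho : gᵀ * g = 1) {f f' : U → U} (a : Act P g f) (hf : ∀ x, f (f' x) = x) :
    Act P gᵀ f' := fun x => by
  obtain ⟨s, e⟩ := a (f' x)
  rw [hf] at e
  have := congrArg (fun M => chi s • (gᵀ * M * gᵀ)) e
  simp only [← mul_assoc, ho, one_mul, mul_smul_comm, smul_mul_assoc, smul_smul, chi_mul_self, one_smul] at this
  exact ⟨s, by rw [this, mul_assoc, mul_eq_one_comm.1 ho, mul_one]⟩

variable {K : Type*} [Group K] (ρ : Representation (ZMod 2) K U)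

/-- the Clifford group -/
def grp : Subgroup (Matrix ι ι ℝ)ˣ where
  carrier := {g | g.1 ∈ sp P ∧ g.1ᵀ * g.1 = 1 ∧ ∃ k, Act P g.1 (ρ k)}
  one_mem' := ⟨h.one_mem, by simp, 1, fun x => ⟨0, by simp⟩⟩
  mul_mem' := by
    rintro a b ⟨a1, a2, k, a3⟩ ⟨b1, b2, l, b3⟩
    refine ⟨h.mul_mem a1 b1, ?_, k * l, by rw [map_mul]; exact a3.mul b3⟩
    rw [Units.val_mul, transpose_mul, mul_assoc, ← mul_assoc a.1ᵀ, a2, one_mul, b2]
  inv_mem' := by
    rintro a ⟨a1, a2, k, a3⟩
    have e : (a⁻¹).1 = a.1ᵀ := Units.inv_eq_of_mul_eq_one_left a2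
    refine ⟨e ▸ h.tr_mem a1, by rw [e, transpose_transpose, mul_eq_one_comm.1 a2], k⁻¹, e ▸ a3.tr a2 fun x => ?_⟩
    rw [← Module.End.mul_apply, ← map_mul, mul_inv_cancel, map_one, Module.End.one_apply]

variable (hρ : Function.Injective ρ)
include hρ

theorem k_unique {g : Matrix ι ι ℝ} (ho : gᵀ * g = 1) {k l : K} (a : Act P g (ρ k)) (a' : Act P g (ρ l)) : k = l :=
  hρ (LinearMap.ext (congrFun (h.act_unique ho a a')))

/-- the action of the Clifford group on `U` -/
noncomputable def hom : h.grp ρ →* K := MonoidHom.mk' (fun g => g.2.2.2.choose) fun a b =>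
  h.k_unique ρ hρ (a * b).2.2.1 (a * b).2.2.2.choose_spec (by
    rw [map_mul]; exact a.2.2.2.choose_spec.mul b.2.2.2.choose_spec)

theorem act_hom (g : h.grp ρ) : Act P g.1.1 (ρ (h.hom ρ hρ g)) := g.2.2.2.choose_spec

theorem hom_eq {g : h.grp ρ} {k : K} (a : Act P g.1.1 (ρ k)) : h.hom ρ hρ g = k :=
  h.k_unique ρ hρ g.2.2.1 (h.act_hom ρ hρ g) a

variable [Module.Finite (ZMod 2) U]

theorem hom_surj (hq : ∀ k x, β (ρ k x) (ρ k x) = β x x) : Function.Surjective (h.hom ρ hρ) := fun k => by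
  obtain ⟨g, h1, h2, h3⟩ := h.exists_act (ρ k) (hq k)
  exact ⟨⟨⟨g, gᵀ, mul_eq_one_comm.1 h2, h2⟩, h1, h2, k, h3⟩, h.hom_eq ρ hρ h3⟩

theorem ker_eq (a : (h.hom ρ hρ).ker) : ∃ s x, a.1.1.1 = chi s • P x :=
  h.exists_eq a.1.2.1 a.1.2.2.1 (by
    have := h.act_hom ρ hρ a.1
    rwa [show h.hom ρ hρ a.1 = 1 from a.2, map_one] at this)

/-- the signed Pauli matrices as elements of the kernel -/
noncomputable def el (s : ZMod 2) (x : U) : (h.hom ρ hρ).ker :=
  have ho : (chi s • P x)ᵀ * (chi s • P x) = 1 := by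
    rw [transpose_smul, smul_mul_assoc, mul_smul_comm, smul_smul, chi_mul_self, one_smul, h.tr_mul]
  have ha : Act P (chi s • P x) (ρ 1) := by rw [map_one]; exact h.act_P s x
  ⟨⟨⟨chi s • P x, (chi s • P x)ᵀ, mul_eq_one_comm.1 ho, ho⟩, Submodule.smul_mem _ _ (P_mem x), ho, 1, ha⟩,
    h.hom_eq ρ hρ ha⟩

theorem el_val (s : ZMod 2) (x : U) : (h.el ρ hρ s x).1.1.1 = chi s • P x := rfl

theorem ker_ext {a b : (h.hom ρ hρ).ker} (e : a.1.1.1 = b.1.1.1) : a = b := Subtype.ext (Subtype.ext (Units.ext e))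

theorem exists_el (a : (h.hom ρ hρ).ker) : ∃ s x, a = h.el ρ hρ s x :=
  let ⟨s, x, e⟩ := h.ker_eq ρ hρ a; ⟨s, x, h.ker_ext ρ hρ e⟩

theorem el_mul (s t : ZMod 2) (x y : U) : h.el ρ hρ s x * h.el ρ hρ t y = h.el ρ hρ (s + t + β x y) (x + y) :=
  h.ker_ext ρ hρ (by
    change (chi s • P x) * (chi t • P y) = chi (s + t + β x y) • P (x + y)
    rw [smul_mul_assoc, mul_smul_comm, h.mul, smul_smul, smul_smul, chi_add, chi_add])

theorem el_inj {s t : ZMod 2} {x y : U} (e : h.el ρ hρ s x = h.el ρ hρ t y) : s = t ∧ x = y := by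
  have e1 : chi s • P x = chi t • P y := congrArg (·.1.1.1) e
  obtain rfl : x = y := h.inj (a := chi s * chi t) (by rw [← smul_smul, ← e1, smul_smul, chi_mul_self, one_smul])
  exact ⟨chi_inj (h.smul_inj e1), rfl⟩

theorem el_one : h.el ρ hρ 0 0 = 1 := h.ker_ext ρ hρ (by rw [el_val, chi_zero, one_smul, h.zero]; rfl)

/-- the vector of a signed Pauli matrix -/
noncomputable def vec (a : (h.hom ρ hρ).ker) : U := (h.exists_el ρ hρ a).choose_spec.choose

theorem vec_el (s : ZMod 2) (x : U) : h.vec ρ hρ (h.el ρ hρ s x) = x :=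
  (h.el_inj ρ hρ (h.exists_el ρ hρ _).choose_spec.choose_spec).2.symm

/-- the kernel as a central extension of `U` -/
noncomputable def heis : CL.Grp.Heis 2 (h.hom ρ hρ).ker U where
  ι s := h.el ρ hρ s 0
  ι_add s t := by rw [el_mul]; simp
  ι_inj _ _ e := (h.el_inj ρ hρ e).1
  ι_mem_center s := Subgroup.mem_center_iff.2 fun a => by
    obtain ⟨t, x, rfl⟩ := h.exists_el ρ hρ a
    rw [el_mul, el_mul]; simp [add_comm]
  π := h.vec ρ hρ
  π_mul a b := by
    obtain ⟨s, x, rfl⟩ := h.exists_el ρ hρ a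
    obtain ⟨t, y, rfl⟩ := h.exists_el ρ hρ b
    rw [el_mul, vec_el, vec_el, vec_el]
  π_surj x := ⟨_, h.vec_el ρ hρ 0 x⟩
  π_eq_zero_iff a := by
    obtain ⟨s, x, rfl⟩ := h.exists_el ρ hρ a
    rw [vec_el]
    exact ⟨fun e => ⟨s, by rw [e]⟩, fun ⟨_, e⟩ => (h.el_inj ρ hρ e).2.symm⟩

theorem heis_nd (x : U) (hx : ∀ y, (h.heis ρ hρ).B x y = 0) : x = 0 := h.nd x fun y => by
  have := ((h.heis ρ hρ).B_eq_zero_iff (a := h.el ρ hρ 0 x) (b := h.el ρ hρ 0 y)).1 (by
    have e : (h.heis ρ hρ).π (h.el ρ hρ 0 x) = x := h.vec_el ρ hρ 0 x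
    rw [e]; exact hx _)
  rw [el_mul, el_mul] at this
  have := (h.el_inj ρ hρ this).1
  rw [add_left_cancel this, add_self]

theorem vec_conj (r : h.grp ρ) (a b : (h.hom ρ hρ).ker) (e : b.1 = r * a.1 * r⁻¹) :
    h.vec ρ hρ b = ρ (h.hom ρ hρ r) (h.vec ρ hρ a) := by
  obtain ⟨s, x, rfl⟩ := h.exists_el ρ hρ a
  obtain ⟨t, y, rfl⟩ := h.exists_el ρ hρ b
  rw [vec_el, vec_el]
  obtain ⟨c, hc⟩ := h.act_hom ρ hρ r x
  have e1 : (chi t • P y) * r.1.1 = r.1.1 * (chi s • P x) := congrArg (·.1.1) (eq_mul_inv_iff_mul_eq.1 e)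
  rw [mul_smul_comm, hc] at e1
  have := congrArg (fun M => chi t • (M * r.1.1ᵀ)) e1
  simp only [smul_mul_assoc, mul_assoc, mul_eq_one_comm.1 r.2.2.1, mul_one, smul_smul, chi_mul_self, one_smul] at this
  exact h.inj this

theorem sq_eq_one (a : (h.hom ρ hρ).ker) : a * a = 1 ↔ β (h.vec ρ hρ a) (h.vec ρ hρ a) = 0 := by
  obtain ⟨s, x, rfl⟩ := h.exists_el ρ hρ a
  rw [vec_el, el_mul, add_self, add_self, zero_add, ← el_one]
  exact ⟨fun e => (h.el_inj ρ hρ e).1, fun e => by rw [e]⟩

end Pauli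

end CL.RCl
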